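import Mathlib
import Cfsg.Agent.Lib.Helper5.PermEmbed

set_option autoImplicit false

/-! # `SL₂(𝔽₂) ≃* S₃` and internal direct products (for helper7's farm GlS3, piece XG) -/

namespace Cfsg.Agent.Lib.Helper2.GlS3

open Matrix

theorem card_sl2_two : Nat.card (Matrix.SpecialLinearGroup (Fin 2) (ZMod 2)) = 6 := by
  rw [Nat.card_eq_fintype_card]
  decide +kernel

/-- the action on the three non-zero vectors -/
def slPerm : Matrix.SpecialLinearGroup (Fin 2) (ZMod 2) →*
    Equiv.Perm {v : Fin 2 → ZMod 2 // v ≠ 0} where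
  toFun g := (Matrix.SpecialLinearGroup.toLin' g).toEquiv.subtypeEquiv (fun v => by
    simp)
  map_one' := by
    ext v
    simp
  map_mul' g h := by
    ext v
    simp

theorem slPerm_injective : Function.Injective slPerm := by
  rw [injective_iff_map_eq_one]
  intro g hg
  have h1 : ∀ v : Fin 2 → ZMod 2, v ≠ 0 → (g : Matrix (Fin 2) (Fin 2) (ZMod 2)) *ᵥ v = v := by
    intro v hv
    have := congrArg (fun σ : Equiv.Perm {v : Fin 2 → ZMod 2 // v ≠ 0} => (σ ⟨v, hv⟩).1) hg
    have h2 : (Matrix.SpecialLinearGroup.toLin' g) v = v := by simpa [slPerm] using this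
    rwa [Matrix.SpecialLinearGroup.toLin'_apply] at h2
  ext i j
  have h2 := congrFun (h1 (Pi.single j 1) (by
    intro h
    have := congrFun h j
    simp at this)) i
  simpa [Matrix.mulVec_single_one, Matrix.one_apply, Pi.single_apply] using h2

theorem card_nonzero : Nat.card {v : Fin 2 → ZMod 2 // v ≠ 0} = 3 := by
  rw [Nat.card_eq_fintype_card]
  decide +kernel

theorem sl2_two_equiv : Nonempty (Matrix.SpecialLinearGroup (Fin 2) (ZMod 2) ≃* Equiv.Perm (Fin 3)) :=
  Cfsg.Agent.Lib.Helper5.nonempty_mulEquiv_perm_of_injective slPerm slPerm_injective 3 card_nonzero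
    (by rw [card_sl2_two]; rfl)

/-- an internal direct product of copies of `S` -/
theorem prod_equiv {G : Type*} [Group G] {ι : Type*} [Finite ι] (E : ι → Subgroup G)
    (H : Subgroup G) (hN : ∀ i, H ≤ Subgroup.normalizer ((E i : Subgroup G) : Set G))
    (hind : iSupIndep E) (hsup : ⨆ i, E i = H) {S : Type*} [Group S]
    (hS : ∀ i, Nonempty (E i ≃* S)) : Nonempty (H ≃* (Fin (Nat.card ι) → S)) := by
  classical
  haveI := Fintype.ofFinite ι
  have hle : ∀ i, E i ≤ H := fun i => hsup ▸ le_iSup E i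
  have hcomm : Pairwise fun i j => ∀ x y : G, x ∈ E i → y ∈ E j → Commute x y := by
    intro i j hij x y hx hy
    have hdisj : Disjoint (E i) (E j) := hind.pairwiseDisjoint hij
    have h1 : x * y * x⁻¹ * y⁻¹ ∈ E i := by
      have := (Subgroup.mem_normalizer_iff.1 (hN i (hle j hy)) x⁻¹).1 ((E i).inv_mem hx)
      have h2 := (E i).mul_mem hx this
      simpa [mul_assoc] using h2
    have h2 : x * y * x⁻¹ * y⁻¹ ∈ E j := by
      have := (Subgroup.mem_normalizer_iff.1 (hN j (hle i hx)) y).1 hy
      exact (E j).mul_mem this ((E j).inv_mem hy)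
    have h3 : x * y * x⁻¹ * y⁻¹ = 1 := by
      have := (Subgroup.disjoint_def.1 hdisj) h1 h2
      exact this
    show x * y = y * x
    calc x * y = (x * y * x⁻¹ * y⁻¹) * (y * x) := by group
      _ = y * x := by rw [h3, one_mul]
  let f := Subgroup.noncommPiCoprod hcomm
  have hinj : Function.Injective f := Subgroup.injective_noncommPiCoprod_of_iSupIndep hind
  have hrange : f.range = H := by rw [Subgroup.noncommPiCoprod_range, hsup]
  let e1 : (∀ i, E i) ≃* f.range := MonoidHom.ofInjective hinj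
  let e2 : f.range ≃* H := MulEquiv.subgroupCongr hrange
  let e3 : (∀ i, E i) ≃* (ι → S) := MulEquiv.piCongrRight (fun i => (hS i).some)
  let e4 : (ι → S) ≃* (Fin (Nat.card ι) → S) :=
    MulEquiv.arrowCongr (Finite.equivFin ι) (MulEquiv.refl S)
  exact ⟨(e2.symm.trans e1.symm).trans (e3.trans e4)⟩

end Cfsg.Agent.Lib.Helper2.GlS3
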